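import Mathlib
import Cfsg.Agent.Lib.Helper65.BG.S1391Defs
import Cfsg.Agent.Lib.Helper65.BG.S1407Core
import Cfsg.Agent.Lib.Helper62.BG.S1362Core
import Cfsg.Agent.Lib.Helper27.BG.SigmaBasic
import Cfsg.Agent.Lib.Helper75.BGUtil
import Cfsg.Agent.Lib.Helper67.BG.Basics

/-!
Team project S1391 (helper65): package `LemCop` (helper11).

For `x ∈ M_σ^#` with `C_G(x) ≰ M` and `L` the maximal subgroup over `C_G(x)`, the order of `L_σ`
is coprime to the order of `C_M(y)` for every `y ∈ A₀(M)^#`.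
-/

set_option autoImplicit false

namespace Cfsg.Agent.Lib.Helper11.BG91

open Cfsg
open scoped Pointwise

universe u

theorem lemCop : Cfsg.Agent.Lib.Helper65.BG91.LemCop.{u} := by
  intro G _ _ hG h1350 h1351 h1352 h1375 h1378 h1403 h1436 M hM K U hKU x hx hx1 hxM L hL hxL
    y hy hy1
  classical
  by_contra hne
  obtain ⟨p, hp, hpL, hpC⟩ := Nat.Prime.not_coprime_iff_dvd.mp hne
  haveI : Fact p.Prime := ⟨hp⟩
  have hpsL : p ∈ sigma L := (h1350 L hL).1.2.1 p hp hpL
  have hpM : p ∣ Nat.card M := hpC.trans (Subgroup.card_dvd_of_le inf_le_left)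
  obtain ⟨hkap, htau2⟩ := (h1436 M hM x hx hx1 hxM L hL hxL).1 ⟨p, hpsL, hpM⟩
  have hoddG : Odd (Nat.card G) := hG.1
  -- (*) no element of `M` of prime order outside `σ(M)` centralizes an element of `M_σ^#`
  have hstar : ∀ c ∈ M, ∀ r : ℕ, r.Prime → orderOf c = r → r ∉ sigma M →
      ∀ z ∈ sigmaCore M, z ≠ 1 → c * z = z * c → False := by
    intro c hc r hr hcr hrs z hz hz1 hcz
    haveI : Fact r.Prime := ⟨hr⟩
    have hrM : r ∣ Nat.card M := by
      have h1 := orderOf_dvd_natCard (⟨c, hc⟩ : ↥M)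
      rwa [Subgroup.orderOf_mk, hcr] at h1
    have hr2 : r ≠ 2 := by
      intro h2
      have h3 : (2 : ℕ) ∣ Nat.card G := by
        rw [← h2]
        exact hrM.trans (Subgroup.card_subgroup_dvd_card M)
      exact (Nat.not_even_iff_odd.mpr hoddG) (even_iff_two_dvd.mpr h3)
    have hr1 : PRankLE r 1 ↥M := by
      have hnα : r ∉ alpha M := fun h =>
        hrs (Cfsg.Agent.Lib.Helper65.BG.alpha_subset_sigma hG h1403 M hM h)
      have h2 : PRankLE r 2 ↥M := by
        by_contra h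
        exact hnα ⟨hr, h⟩
      by_contra h1
      have h3 : r ∈ tau2 M := ⟨hr, hrs, h2, h1⟩
      rw [htau2] at h3
      exact h3
    have hrk : r ∈ kappa M := by
      refine ⟨hr, hrM, hrs, ?_⟩
      intro P
      refine ⟨Cfsg.Agent.Lib.Helper75.BG.isCyclic_sylow_of_rank_one M M le_rfl r hr2 hr1 P, ?_⟩
      have hcp : IsPGroup r (Subgroup.zpowers (⟨c, hc⟩ : ↥M)) := by
        apply IsPGroup.of_card (n := 1)
        rw [Nat.card_zpowers, Subgroup.orderOf_mk, hcr, pow_one]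
      obtain ⟨P0, hP0⟩ := hcp.exists_le_sylow
      obtain ⟨m, hm⟩ := MulAction.exists_smul_eq ↥M P0 P
      have h1 : (MulAut.conj m) • (⟨c, hc⟩ : ↥M) ∈ (MulAut.conj m) • (P0 : Subgroup ↥M) :=
        Subgroup.smul_mem_pointwise_smul _ _ _ (hP0 (Subgroup.mem_zpowers _))
      have h2 : ((m • P0 : Sylow r ↥M) : Subgroup ↥M) = (MulAut.conj m) • (P0 : Subgroup ↥M) :=
        Sylow.pointwise_smul_def
      rw [← hm]
      refine ⟨m * ⟨c, hc⟩ * m⁻¹, ?_, ?_, (m : G) * z * (m : G)⁻¹, ?_, ?_, ?_⟩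
      · show m * ⟨c, hc⟩ * m⁻¹ ∈ ((m • P0 : Sylow r ↥M) : Subgroup ↥M)
        rw [h2]
        exact h1
      · intro h
        have h3 : (⟨c, hc⟩ : ↥M) = 1 := by
          have h4 : (⟨c, hc⟩ : ↥M) = m⁻¹ * (m * ⟨c, hc⟩ * m⁻¹) * m := by group
          rw [h4, h, mul_one, inv_mul_cancel]
        have h5 : c = 1 := congrArg Subtype.val h3
        rw [h5, orderOf_one] at hcr
        exact hr.one_lt.ne hcr
      · exact (Subgroup.mem_normalizer_iff.mp
          (Cfsg.Agent.Lib.Helper67.BG.sigmaCore_normalizer M m.2) z).mp hz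
      · intro h
        apply hz1
        have h4 : z = (m : G)⁻¹ * ((m : G) * z * (m : G)⁻¹) * (m : G) := by group
        rw [h4, h, mul_one, inv_mul_cancel]
      · show (m : G) * c * (m : G)⁻¹ * ((m : G) * z * (m : G)⁻¹)
            = (m : G) * z * (m : G)⁻¹ * ((m : G) * c * (m : G)⁻¹)
        calc (m : G) * c * (m : G)⁻¹ * ((m : G) * z * (m : G)⁻¹)
            = (m : G) * (c * z) * (m : G)⁻¹ := by group
          _ = (m : G) * (z * c) * (m : G)⁻¹ := by rw [hcz]
          _ = (m : G) * z * (m : G)⁻¹ * ((m : G) * c * (m : G)⁻¹) := by group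
    rw [hkap] at hrk
    exact hrk
  -- `y ∈ M_σ`
  obtain ⟨⟨hyM, y', hy', hy'1, hyy'⟩, -⟩ := hy
  have hyMs : y ∈ sigmaCore M := by
    apply Cfsg.Agent.Lib.Helper62.BG.mem_sigmaCore_of_primes M (h1350 M hM).1 hyM
    intro r hr hrdvd
    by_contra hrs
    have hc_ord : orderOf (y ^ (orderOf y / r)) = r :=
      orderOf_pow_orderOf_div (orderOf_pos y).ne' hrdvd
    exact hstar _ (M.pow_mem hyM _) r hr hc_ord hrs y' hy' hy'1
      ((show Commute y y' from hyy').pow_left _).eq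
  -- `p ∉ σ(M)`
  have hpsM : p ∉ sigma M := by
    intro hpsM
    obtain ⟨g, hg⟩ := h1378.2 M L hM hL ⟨p, hpsM, hpsL⟩
    have hσ : sigma L = sigma M := by
      rw [hg]
      exact Cfsg.Agent.Lib.Helper27.BG.sigma_map_conj M g
    have hxL' : x ∈ L := by
      apply hxL
      rw [Subgroup.mem_centralizer_iff]
      intro h hh
      rw [Set.mem_singleton_iff.mp hh]
    have hxLs : x ∈ sigmaCore L := by
      apply Cfsg.Agent.Lib.Helper62.BG.mem_sigmaCore_of_primes L (h1350 L hL).1 hxL'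
      intro r hr hrdvd
      rw [hσ]
      exact Cfsg.Agent.Lib.Helper67.BG.sigmaCore_isPi M r hr
        (hrdvd.trans (Subgroup.orderOf_dvd_natCard _ hx))
    obtain ⟨N, ⟨hN, hxN⟩, huniq, -, -, -, -, hdec⟩ := h1375 M hM x hx hx1 hxM
    have hLN : L = N := huniq L hL hxL
    obtain ⟨⟨K', hK'⟩, hK'cyc⟩ := h1351 L hL
    obtain ⟨⟨U', hU'⟩, -⟩ := h1352 L hL K' (hK'cyc K' hK') hK'
    rw [hLN] at hU' hxLs
    exact (hdec K' U' hU').2.2 hxLs
  -- an element of order `p` in `C_M(y)`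
  obtain ⟨e, he⟩ := exists_prime_orderOf_dvd_card' (G := ↥(M ⊓ Subgroup.centralizer ({y} : Set G)))
    p hpC
  have heM : (e : G) ∈ M := (Subgroup.mem_inf.mp e.2).1
  have heC : (e : G) ∈ Subgroup.centralizer ({y} : Set G) := (Subgroup.mem_inf.mp e.2).2
  have hord : orderOf (e : G) = p := by
    rw [← he]
    exact Subgroup.orderOf_coe e
  have hcomm : (e : G) * y = y * (e : G) :=
    (Subgroup.mem_centralizer_iff.mp heC y (Set.mem_singleton y)).symm
  exact hstar (e : G) heM p hp hord hpsM y hyMs hy1 hcomm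

end Cfsg.Agent.Lib.Helper11.BG91
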